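import Cfsg.Agent.IC.A

/-! Intrinsic 2-components with a unique involution: basics. -/

set_option autoImplicit false
set_option linter.unusedVariables false
set_option linter.unusedSectionVars false

namespace IC

open Cfsg Subgroup FT H4 H5
open scoped commutatorElement

universe u

variable {G : Type u} [Group G] [Finite G] {J K L M S : Subgroup G} {a b g x y : G}

/-- `2`-components of `C(a)` -/
abbrev PC (a : G) (L : Subgroup G) : Prop := PCompIn 2 (Cen1 a) L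

/-- elements acting trivially on `L` modulo the core of `C(a)` -/
abbrev T (a : G) (L : Subgroup G) : Subgroup G := cMod L (O (Cen1 a))

/-- `2`-elements -/
def P2 (x : G) : Prop := ∃ k, x ^ 2 ^ k = 1

theorem c1 : x ∈ Cen1 a ↔ x * a = a * x := mem_centralizer_singleton_iff

theorem c1' (h : x ∈ Cen1 a) : x * a * x⁻¹ = a := by rw [c1.1 h, mul_inv_cancel_right]

theorem c1s (h : x ∈ Cen1 a) : a ∈ Cen1 x := c1.2 (c1.1 h).symm

theorem P2.of_sq (h : x * x = 1) : P2 x := ⟨1, by rw [pow_one, pow_two, h]⟩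

theorem P2.of_mem (hS : IsPGroup 2 S) (h : x ∈ S) : P2 x := exists_pow_pow_of_mem hS h

theorem P2.conj (h : P2 x) (g : G) : P2 (g * x * g⁻¹) :=
  h.imp fun k e => by rw [conj_pow, e, mul_one, mul_inv_cancel]

theorem P2.grp (h : P2 x) : IsPGroup 2 (zpowers x) := h.elim fun _ e => isPGroup_zpowers_of_pow e

theorem P2.into (h : P2 x) (hS : IsSylowOf 2 S L) (hx : x ∈ L) : ∃ g ∈ L, g * x * g⁻¹ ∈ S := by
  obtain ⟨g, hg, e⟩ := hS.exists_conj_le h.grp (zpowers_le.2 hx)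
  exact ⟨g, hg, e (conj_mem_conjS (mem_zpowers x))⟩

theorem P2.one (h : P2 x) (hx : x ∈ O L) : x = 1 :=
  h.elim fun _ e => eq_one_of_pow_pow_of_coprime e (coprime_orderOf_of_mem (copO L) hx)

theorem PC.conj (h : PC a L) (g : G) : PC (g * a * g⁻¹) (conjS g L) := by
  have := h.conjS g
  rwa [conjS_centralizer_singleton] at this

theorem PC.conjC (h : PC a L) (hg : g ∈ Cen1 a) : PC a (conjS g L) := h.conjS_of_mem hg

theorem T_conj (h : x ∈ T a L) (g : G) : g * x * g⁻¹ ∈ T (g * a * g⁻¹) (conjS g L) := by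
  have e : O (Cen1 (g * a * g⁻¹)) = conjS g (O (Cen1 a)) := by
    rw [conjS_pPrimeCoreIn, conjS_centralizer_singleton]
  refine ⟨?_, ?_⟩
  · rw [e, ← conjS_normalizer]; exact conj_mem_conjS h.1
  · rintro _ ⟨k, hk, rfl⟩
    rw [e, show ⁅(MulAut.conj g).toMonoidHom k, g * x * g⁻¹⁆ = g * ⁅k, x⁆ * g⁻¹ by
      simp only [commutatorElement_def, MulEquiv.coe_toMonoidHom, MulAut.conj_apply]; group]
    exact conj_mem_conjS (h.2 k hk)

theorem T_conjC (h : x ∈ T a L) (hg : g ∈ Cen1 a) : g * x * g⁻¹ ∈ T a (conjS g L) := by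
  have := T_conj h g
  rwa [c1' hg] at this

theorem T_nor (h : x ∈ T a L) (hg : g ∈ Cen1 a) (hn : g ∈ Nor L) : g * x * g⁻¹ ∈ T a L := by
  have := T_conjC h hg
  rwa [mem_normalizer_iff_conjS.1 hn] at this

theorem T_of (hx : x ∈ Cen1 a) (h : ∀ k ∈ L, ⁅k, x⁆ ∈ O (Cen1 a)) : x ∈ T a L :=
  ⟨le_normalizer_pPrimeCoreIn 2 _ hx, h⟩

theorem T_of_ne (hL : PC a L) (hM : PC a M) (h : L ≠ M) (hx : x ∈ M) : x ∈ T a L :=
  T_of (hM.le hx) fun _ hk =>
    (hL.eq_or_commutator_le hM).resolve_left h (commutator_mem_commutator hk hx)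

theorem T_self (hL : PC a L) : a ∈ T a L :=
  T_of (c1.2 rfl) fun k hk => by
    rw [commutatorElement_eq_one_iff_mul_comm.2 (c1.1 (hL.le hk))]; exact one_mem _

theorem T_O (hL : PC a L) (hx : x ∈ O (Cen1 a)) : x ∈ T a L :=
  T_of (pPrimeCoreIn_le 2 _ hx) fun k hk => mul_mem (conj_mem_of_le_normalizer
    (le_normalizer_pPrimeCoreIn 2 _) (hL.le hk) hx) (inv_mem hx)

theorem T_com (h : x ∈ T a L) : ⁅L, zpowers x⁆ ≤ O (Cen1 a) := (le_cMod_iff.1 (zpowers_le.2 h)).2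

theorem nor_of_T (hL : PC a L) (hx : x ∈ Cen1 a) (h : x ∈ T a L) : x ∈ Nor L :=
  hL.le_normalizer_of_commutator_le (zpowers_le.2 hx) ((T_com h).trans le_sup_right) (mem_zpowers x)

theorem comm2 (hS : IsPGroup 2 S) (hx : x ∈ S) (hL : x ∈ L) (hy : y ∈ S) (h : y ∈ T a L) :
    x * y = y * x :=
  commutatorElement_eq_one_iff_mul_comm.1 ((P2.of_mem hS
    (mul_mem (mul_mem (mul_mem hx hy) (inv_mem hx)) (inv_mem hy))).one (h.2 x hL))

theorem bal (bb : b * b = 1) (hb : b ∈ Cen1 a) (h : PCompIn 2 (Cen1 b ⊓ Cen1 a) M) (hL : PC a L) :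
    M ≤ Nor L := by
  have e1 := lbal_in _root_.L.zstar (P2.of_sq bb).grp (zpowers_le.2 hb)
  rw [H4.centralizer_zpowers, inf_comm] at e1
  exact (h.le_pLayerIn.trans e1).trans hL.pLayerIn_le_normalizer

theorem cover (hL : PC b L) (aa : a * a = 1) (ha : a ∈ Cen1 b) (h : a ∈ T b L) :
    ∃ M, PCompIn 2 (Cen1 b ⊓ Cen1 a) M ∧ M ≤ L ∧ ∀ x ∈ L, x ∈ Cen1 a → P2 x → x ∈ M := by
  have hn := zpowers_le.2 (nor_of_T hL ha h)
  have := hL.pGenIn_inf_centralizer (P2.of_sq aa).grp hn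
    ((hL.commutator_le_iff hn).2 (T_com h))
  rw [H4.centralizer_zpowers] at this
  exact ⟨_, this, (pGenIn_le _ _).trans inf_le_left, fun x h1 h2 ⟨_, e⟩ => mem_pGenIn ⟨h1, h2⟩ e⟩

/-- an intrinsic `2`-component with the unique involution `a` -/
structure U (J : Subgroup G) (a : G) : Prop where
  pc : PC a J
  mem : a ∈ J
  sq : a * a = 1
  ne : a ≠ 1
  uq : ∀ t ∈ J, t * t = 1 → t = 1 ∨ t = a

theorem U.conj (h : U J a) (g : G) : U (conjS g J) (g * a * g⁻¹) :=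
  ⟨h.pc.conj g, conj_mem_conjS h.mem, by rw [conj_mul, h.sq, mul_one, mul_inv_cancel],
    fun e => h.ne (conj_eq_one_iff.1 e), by
      rintro _ ⟨t, ht, rfl⟩ e
      have e' : g * (t * t) * g⁻¹ = 1 := by rw [← conj_mul]; exact e
      rcases h.uq t ht (conj_eq_one_iff.1 e') with rfl | rfl
      · left; simp
      · right; rfl⟩

theorem U.conjC (h : U J a) (hg : g ∈ Cen1 a) : U (conjS g J) a := by
  have := h.conj g
  rwa [c1' hg] at this

theorem U.ia (h : U J a) : a⁻¹ = a := inv_eq_of_mul_eq_one_right h.sq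

theorem U.cen (h : U J a) (hg : g ∈ Nor J) : g ∈ Cen1 a := by
  rcases h.uq _ (conj_mem_of_mem_normalizer hg h.mem)
    (by rw [conj_mul, h.sq, mul_one, mul_inv_cancel]) with e | e
  · exact absurd (conj_eq_one_iff.1 e) h.ne
  · exact c1.2 (mul_inv_eq_iff_eq_mul.1 e)

theorem U.ex4 (h : U J a) (hx : x ∈ J) (h2 : P2 x) (h1 : x * x ≠ 1) :
    ∃ v ∈ zpowers x, v * v = a := by
  obtain ⟨k, e⟩ := h2
  induction k generalizing x with
  | zero => rw [pow_zero, pow_one] at e; simp [e] at h1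
  | succ k ih =>
    by_cases h3 : x * x * (x * x) = 1
    · exact ⟨x, mem_zpowers x, (h.uq _ (mul_mem hx hx) h3).resolve_left h1⟩
    · obtain ⟨v, hv, e'⟩ := ih (mul_mem hx hx) h3 (by rw [← pow_two, ← pow_mul, ← pow_succ', e])
      exact ⟨v, zpowers_le.2 (mul_mem (mem_zpowers x) (mem_zpowers x)) hv, e'⟩

theorem quat_center {n : ℕ} {x : QuaternionGroup (2 ^ (n + 1))} (h : ∀ y, x * y = y * x) :
    x * x = 1 := by
  rcases x with i | i
  · have := h (QuaternionGroup.xa 0)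
    simp only [QuaternionGroup.a_mul_xa, QuaternionGroup.xa_mul_a,
      QuaternionGroup.xa.injEq] at this
    rw [QuaternionGroup.a_mul_a, QuaternionGroup.one_def]
    congr 1
    linear_combination -this
  · have := h (QuaternionGroup.a 1)
    simp only [QuaternionGroup.a_mul_xa, QuaternionGroup.xa_mul_a,
      QuaternionGroup.xa.injEq] at this
    have e : ((2 : ℕ) : ZMod (2 * 2 ^ (n + 1))) = 0 := by push_cast; linear_combination this
    rw [ZMod.natCast_eq_zero_iff] at e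
    have := Nat.le_of_dvd two_pos e
    have : 1 < 2 ^ (n + 1) := Nat.one_lt_two_pow (by omega)
    omega

theorem U.ncyc (h : U J a) (hS : IsSylowOf 2 S J) : ¬ IsCyclic S := by
  obtain ⟨P, rfl⟩ := hS.exists_sylow
  exact fun hc => h.pc.pqs.not_isCyclic_sylow P
    (isCyclic_of_surjective _ (equivMapOfInjective _ _ J.subtype_injective).symm.surjective)

theorem U.no4 (h : U J a) (hx : x ∈ J) (e : x * x = a) : x ∉ T a J := fun hT => by
  have p : P2 x := ⟨2, by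
    rw [show x ^ 2 ^ 2 = x * x * (x * x) by norm_num [pow_succ, mul_assoc], e, h.sq]⟩
  obtain ⟨S, hS, hxS⟩ := exists_isSylowOf_ge p.grp (zpowers_le.2 hx)
  have xS := hxS (mem_zpowers x)
  have key : ∀ t : S, orderOf t = 2 → (t : G) = a := fun t ht => by
    rw [← orderOf_coe] at ht
    exact (h.uq _ (hS.le t.2) (mul_self_eq_one_of_orderOf ht)).resolve_left (ne_one_of_orderOf ht)
  rcases H7.isCyclic_or_quaternion hS.isPGroup (H7.rank_le_one_of_unique_involution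
    fun s t hs ht => Subtype.ext ((key s hs).trans (key t ht).symm)) with hc | ⟨n, ⟨φ⟩⟩
  · exact h.ncyc hS hc
  · have := quat_center (x := φ ⟨x, xS⟩) fun y => by
      obtain ⟨s, rfl⟩ := φ.surjective y
      rw [← map_mul, ← map_mul]
      exact congrArg φ (Subtype.ext (comm2 hS.isPGroup s.2 (hS.le s.2) xS hT).symm)
    rw [← map_mul, map_eq_one_iff _ φ.injective] at this
    exact h.ne (e.symm.trans (congrArg Subtype.val this))

theorem U.T2 (h : U J a) (hx : x ∈ J) (h2 : P2 x) (hT : x ∈ T a J) : x = 1 ∨ x = a := by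
  by_cases h1 : x * x = 1
  · exact h.uq x hx h1
  · obtain ⟨v, hv, e⟩ := h.ex4 hx h2 h1
    exact absurd (zpowers_le.2 hT hv) (h.no4 (zpowers_le.2 hx hv) e)

theorem U.has4 (h : U J a) (hS : IsSylowOf 2 S J) : ∃ x ∈ S, x * x = a := by
  by_contra hc
  push Not at hc
  refine h.ncyc hS (isCyclic_of_le (H' := zpowers a) fun x hx => ?_)
  by_cases h1 : x * x = 1
  · rcases h.uq x (hS.le hx) h1 with rfl | rfl
    · exact one_mem _
    · exact mem_zpowers _
  · obtain ⟨v, hv, e⟩ := h.ex4 (hS.le hx) (P2.of_mem hS.isPGroup hx) h1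
    exact absurd e (hc v (zpowers_le.2 hx hv))

theorem U.s3 (h : U J a) (bb : b * b = 1) (hn : b ∈ Nor J) (hT : b ∉ T a J) :
    ∃ r ∈ J, r * b * r⁻¹ = a * b := by
  by_contra hc
  push Not at hc
  have hb := h.cen hn
  have b1 : b ≠ 1 := fun e => hT (e ▸ one_mem _)
  have ib : b⁻¹ = b := inv_eq_of_mul_eq_one_right bb
  have h1 := _root_.L.zstar (J ⊔ zpowers b : Subgroup G) ⟨b, mem_sup_right (mem_zpowers b)⟩
    (by rw [← orderOf_eq_two' bb b1]; exact (orderOf_coe _).symm) (by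
      rintro ⟨g, hg⟩ hc'
      obtain ⟨f, hf, _, ⟨n, rfl⟩, rfl⟩ := (mem_sup_of_le_normalizer_left (zpowers_le.mpr hn)).mp hg
      have hc' : b * (f * b ^ n * b * (f * b ^ n)⁻¹) = (f * b ^ n * b * (f * b ^ n)⁻¹) * b :=
        congrArg Subtype.val hc'
      refine Subtype.ext (show f * b ^ n * b * (f * b ^ n)⁻¹ = b from ?_)
      rw [show f * b ^ n * b * (f * b ^ n)⁻¹ = f * b * f⁻¹ by group] at hc' ⊢
      have m : f * b * f⁻¹ * b⁻¹ ∈ J := by
        rw [mul_assoc, mul_assoc, ← mul_assoc b]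
        exact mul_mem hf (conj_mem_of_mem_normalizer hn (inv_mem hf))
      rcases h.uq _ m (by
        rw [ib, mul_assoc, ← mul_assoc b, hc', mul_assoc _ b b, bb, mul_one, conj_mul, bb, mul_one,
          mul_inv_cancel]) with e | e
      · exact mul_inv_eq_one.1 e
      · exact absurd (mul_inv_eq_iff_eq_mul.1 e) (hc f hf))
  refine hT (T_of hb fun f hf => ?_)
  have h2 : f * b * f⁻¹ * b⁻¹ ∈ pPrimeCoreIn 2 (J ⊔ zpowers b) ⊓ J :=
    mem_inf.mpr ⟨mem_map_of_mem _ (h1 ⟨f, mem_sup_left hf⟩), by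
      rw [mul_assoc, mul_assoc, ← mul_assoc b]
      exact mul_mem hf (conj_mem_of_mem_normalizer hn (inv_mem hf))⟩
  exact h.pc.sn.pPrimeCoreIn_le (pPrimeCoreIn_inf_le le_sup_left h2)

/-- elements of `C(a)` normalizing `⟨a, b⟩` -/
def NS (a b : G) (aa : a * a = 1) : Subgroup G where
  carrier := {g | g * a = a * g ∧ (g * b * g⁻¹ = b ∨ g * b * g⁻¹ = a * b)}
  one_mem' := ⟨by simp, Or.inl (by simp)⟩
  mul_mem' := fun {g h} hg hh => ⟨by rw [mul_assoc, hh.1, ← mul_assoc, hg.1, mul_assoc], by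
    have e : g * h * b * (g * h)⁻¹ = g * (h * b * h⁻¹) * g⁻¹ := by group
    have e2 : g * (a * b) * g⁻¹ = a * (g * b * g⁻¹) := by rw [← mul_assoc, hg.1]; group
    rcases hh.2 with e1 | e1 <;> rw [e, e1]
    · exact hg.2
    · rcases hg.2 with e3 | e3 <;> rw [e2, e3]
      · exact Or.inr rfl
      · exact Or.inl (by rw [← mul_assoc, aa, one_mul])⟩
  inv_mem' := fun {g} hg => ⟨(Commute.inv_left hg.1).eq, by
    rcases hg.2 with e | e
    · left; rw [inv_inv]; conv_lhs => rw [← e]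
      group
    · right
      rw [inv_inv]
      have : g * (a * b) * g⁻¹ = b := by
        rw [show g * (a * b) * g⁻¹ = g * a * g⁻¹ * (g * b * g⁻¹) by group, e, hg.1,
          mul_inv_cancel_right, ← mul_assoc, aa, one_mul]
      conv_lhs => rw [← this]
      group⟩

theorem mem_NS {aa : a * a = 1} :
    g ∈ NS a b aa ↔ g * a = a * g ∧ (g * b * g⁻¹ = b ∨ g * b * g⁻¹ = a * b) := Iff.rfl

theorem NS_le {aa : a * a = 1} : NS a b aa ≤ Cen1 a := fun _ h => c1.2 h.1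

theorem D_le {aa : a * a = 1} : Cen1 a ⊓ Cen1 b ≤ NS a b aa :=
  fun _ h => ⟨c1.1 h.1, Or.inl (c1' h.2)⟩

theorem NS_sq {aa : a * a = 1} (h : g ∈ NS a b aa) : g * g ∈ Cen1 b := by
  have e : g * g * b * (g * g)⁻¹ = g * (g * b * g⁻¹) * g⁻¹ := by group
  refine c1.2 (mul_inv_eq_iff_eq_mul.1 ?_)
  rcases h.2 with e1 | e1
  · rw [e, e1, e1]
  · rw [e, e1, show g * (a * b) * g⁻¹ = g * a * g⁻¹ * (g * b * g⁻¹) by group, e1, h.1,
      mul_inv_cancel_right, ← mul_assoc, aa, one_mul]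

theorem NS_nor {aa : a * a = 1} : NS a b aa ≤ Nor (Cen1 a ⊓ Cen1 b) := fun g hg =>
  mem_normalizer_of_forall fun x hx => ⟨conj_mem_of_le_normalizer le_normalizer (NS_le hg) hx.1, by
    have e := (inv_mem hg).2
    rw [inv_inv] at e
    have : g⁻¹ * b * g ∈ Cen1 x := by
      rcases e with e | e <;> rw [e]
      · exact c1s hx.2
      · exact mul_mem (c1s hx.1) (c1s hx.2)
    have e2 := c1.1 this
    refine c1.2 ?_
    calc g * x * g⁻¹ * b = g * (x * (g⁻¹ * b * g)) * g⁻¹ := by group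
      _ = _ := by rw [← e2]; group⟩

theorem PC.syl {aa : a * a = 1} (h : PC a L) (hS : IsSylowOf 2 S (NS a b aa)) :
    IsSylowOf 2 (S ⊓ L) (L ⊓ NS a b aa) := by
  have s := h.sn.inf_right (NS a b aa)
  rw [inf_eq_right.2 NS_le] at s
  have := H4.IsSylowOf.inf_of_sn hS s
  rwa [inf_comm L, ← inf_assoc, inf_eq_left.2 hS.le, inf_comm (NS a b aa) L] at this

theorem U.rho (h : U J a) (bb : b * b = 1) (hn : b ∈ Nor J) (hT : b ∉ T a J)
    (hS : IsSylowOf 2 S (NS a b h.sq)) : ∃ r ∈ S, r ∈ J ∧ r * b * r⁻¹ = a * b := by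
  obtain ⟨r, hr, e⟩ := h.s3 bb hn hT
  by_contra hc
  push Not at hc
  have hr' : r ∈ J ⊓ NS a b h.sq := ⟨hr, c1.1 (h.pc.le hr), Or.inr e⟩
  obtain ⟨u, hu, v, hv, e1, h1, h2⟩ := exists_pPart 2 r
  have hu' := zpowers_le.2 hr' hu
  have hv' := zpowers_le.2 hr' hv
  obtain ⟨g, hg, e2⟩ := P2.into h1 (h.pc.syl hS) hu'
  have m1 : g * u * g⁻¹ ∈ Cen1 a ⊓ Cen1 b := D_le' (hS.le e2.1) (hc _ e2.1 e2.2)
  have m2 := inv_conj_mem_of_mem_normalizer (NS_nor hg.2) m1
  rw [show g⁻¹ * (g * u * g⁻¹) * g = u by group] at m2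
  have m3 : v ∈ Cen1 b := mem_of_pow_mem_of_coprime (by rw [pow_two]; exact NS_sq hv'.2) h2
  have m4 := c1' (mul_mem m2.2 m3)
  rw [← e1, e] at m4
  exact h.ne (mul_eq_right.1 m4)
where
  D_le' {aa : a * a = 1} {g : G} (h : g ∈ NS a b aa) (h' : g * b * g⁻¹ ≠ a * b) :
      g ∈ Cen1 a ⊓ Cen1 b := ⟨c1.2 h.1, c1.2 (mul_inv_eq_iff_eq_mul.1 (h.2.resolve_right h'))⟩

end IC
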