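import Cfsg.Agent.IC.B

/-! Intrinsic 2-components with a unique involution: symmetry of normalization. -/

set_option autoImplicit false
set_option linter.unusedVariables false
set_option linter.unusedSectionVars false

namespace IC

open Cfsg Subgroup FT H4 H5
open scoped commutatorElement

universe u

variable {G : Type u} [Group G] [Finite G] {J K L M S : Subgroup G} {a b g x y : G}

theorem ne_conj (h : g ∉ Nor J) : J ≠ conjS g J := fun e => h (mem_normalizer_iff_conjS.2 e.symm)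

theorem PC.nor (h : PC a L) (hM : PC a M) (hx : x ∈ M) : x ∈ Nor L := hM.le_normalizer h hx

theorem U.two (hJ : U J a) (hK : U K b) (hn : a ∈ Nor K) : b ∈ Nor J := by
  by_contra hb
  have ab : a ∈ Cen1 b := hK.cen hn
  have ba : b ∈ Cen1 a := c1s ab
  have aT : a ∉ T b K := fun hT => by
    obtain ⟨M, hM, -, e⟩ := cover hK.pc hJ.sq ab hT
    exact hb (bal hK.sq ba hM hJ.pc (e b hK.mem ba (P2.of_sq hK.sq)))
  have hJ' := hJ.conjC ba
  have ne := ne_conj hb
  obtain ⟨S, hS, hbS⟩ := exists_isSylowOf_ge (P2.of_sq hK.sq).grp (zpowers_le.2 ba)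
  have bS := hbS (mem_zpowers b)
  obtain ⟨x, hx, xx⟩ := hJ.has4 (H4.IsSylowOf.inf_of_sn hS hJ.pc.sn)
  have xT := hJ.no4 hx.2 xx
  obtain ⟨x', ex'⟩ : ∃ x', x' = b * x * b⁻¹ := ⟨_, rfl⟩
  have x'J : x' ∈ conjS b J := ex' ▸ conj_mem_conjS hx.2
  have x'T := T_of_ne hJ.pc hJ'.pc ne x'J
  have cx : x * x' = x' * x := comm2 hS.isPGroup hx.1 hx.2
    (ex' ▸ mul_mem (mul_mem bS hx.1) (inv_mem bS)) x'T
  have xx' : x' * x' = a := by rw [ex', conj_mul, xx, c1' ba]
  have xa := c1.1 (hJ.pc.le hx.2)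
  have xa' := c1.1 (hJ'.pc.le x'J)
  have tt : x * x' * (x * x') = 1 := by
    calc x * x' * (x * x') = x * (x' * x) * x' := by group
      _ = x * x * (x' * x') := by rw [← cx]; group
      _ = 1 := by rw [xx, xx', hJ.sq]
  have t1 : x * x' ≠ 1 := fun e => xT (eq_inv_of_mul_eq_one_left e ▸ inv_mem x'T)
  have tb : x * x' ∈ Cen1 b := c1.2 (mul_inv_eq_iff_eq_mul.1 (by
    calc b * (x * x') * b⁻¹ = b * x * b⁻¹ * (b * x' * b⁻¹) := by group
      _ = x' * (b * b * x * (b * b)⁻¹) := by rw [← ex', ex']; group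
      _ = x * x' := by rw [hK.sq, cx]; group)).symm
  have ta : x * x' ∈ Cen1 a := mul_mem (hJ.pc.le hx.2) (hJ'.pc.le x'J)
  obtain ⟨J0, hJ0, m0⟩ := dg ba hK.sq hJ.pc ne.symm hx.2 (ex' ▸ tb) (ex' ▸ tt) (ex' ▸ t1)
  rw [← ex'] at m0
  rw [inf_comm] at hJ0
  have tT : x * x' ∈ T b K := by
    rcases pu1 ab hJ.sq hJ0 hK.pc hn with e | e
    · rcases hK.uq _ (e m0) tt with e1 | e1
      · exact absurd e1 t1
      · exact absurd (e1 ▸ mul_mem (le_normalizer hx.2) (hJ.pc.nor hJ'.pc x'J)) hb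
    · exact e m0
  obtain ⟨W, hW, tW⟩ := exists_isSylowOf_ge (K := NS b a hK.sq) (P2.of_sq tt).grp
    (zpowers_le.2 (D_le ⟨tb, ta⟩))
  obtain ⟨g, gW, gK, eg⟩ := hK.rho hJ.sq hn aT hW
  have gt := comm2 hW.isPGroup gW gK (tW (mem_zpowers _)) tT
  have gb := c1' (hK.pc.le gK)
  have e1 : x * b * x⁻¹ = x * x' * a * b := by
    calc x * b * x⁻¹ = x * (b * x * b⁻¹)⁻¹ * b := by group
      _ = x * x' * (x' * x')⁻¹ * b := by rw [← ex']; group
      _ = _ := by rw [xx', hJ.ia]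
  have e2 : g * x * b * (g * x)⁻¹ = x * x' * a := by
    calc g * x * b * (g * x)⁻¹ = g * (x * b * x⁻¹) * g⁻¹ := by group
      _ = g * (x * x') * g⁻¹ * (g * a * g⁻¹) * (g * b * g⁻¹) := by rw [e1]; group
      _ = x * x' * (b * a * b) := by rw [gt, eg, gb]; group
      _ = _ := by rw [c1.1 ba, mul_assoc a, hK.sq, mul_one]
  have e3 : g * x * (x * x') * (g * x)⁻¹ = x * x' := by
    calc g * x * (x * x') * (g * x)⁻¹ = g * (x * (x * x') * x⁻¹) * g⁻¹ := by group
      _ = g * (x * (x' * x) * x⁻¹) * g⁻¹ := by rw [cx]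
      _ = g * (x * x') * g⁻¹ := by group
      _ = _ := by rw [gt]; group
  have hK' := hK.conj (g * x)
  have tT' := T_conj tT (g * x)
  rw [e3, e2] at tT'
  rw [e2] at hK'
  have aT' : a ∈ T (x * x' * a) (conjS (g * x) K) := by
    have := mul_mem (inv_mem tT') (T_self hK'.pc)
    rwa [inv_mul_cancel_left] at this
  have sa : x * x' * a ∈ Cen1 a := mul_mem ta (c1.2 rfl)
  obtain ⟨M, hM, -, e⟩ := cover hK'.pc hJ.sq (c1s sa) aT'
  have sM := e _ hK'.mem sa (P2.of_sq hK'.sq)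
  have sN := bal hK'.sq sa hM hJ.pc sM
  rw [inf_comm] at hM
  rcases pu1 sa hK'.sq hM hJ.pc sN with e | e
  · rcases hJ.uq _ (e sM) hK'.sq with e1 | e1
    · exact hK'.ne e1
    · exact t1 (mul_eq_right.1 e1)
  · have := mul_mem (mul_mem (e sM) (inv_mem (T_self hJ.pc))) (inv_mem x'T)
    rw [mul_inv_cancel_right, mul_inv_cancel_right] at this
    exact xT this

end IC
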