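import Cfsg.Agent.IC.C

/-! Intrinsic 2-components with a unique involution: elements of order at least four. -/

set_option autoImplicit false
set_option linter.unusedVariables false
set_option linter.unusedSectionVars false

namespace IC

open Cfsg Subgroup FT H4 H5
open scoped commutatorElement

universe u

variable {G : Type u} [Group G] [Finite G] {J K L M S : Subgroup G} {a b g x y v r d θ : G}

theorem U.zq (h : U J a) (hv : v ∈ J) (vv : v * v = a) :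
    ∃ g ∈ J, ⁅g * v * g⁻¹, v⁆ ∈ T a J ∧ g * v * g⁻¹ * v⁻¹ ∉ T a J := by
  by_contra hc
  push Not at hc
  have hn : J ≤ Nor (J ⊓ T a J) := fun g hg => mem_normalizer_of_forall fun x hx =>
    ⟨conj_mem_of_le_normalizer le_normalizer hg hx.1, T_nor hx.2 (h.pc.le hg) (le_normalizer hg)⟩
  obtain ⟨X, _, _, f, hf, hk⟩ := exists_hom_ker_eq hn
  have k1 : ∀ x : J, f x = 1 ↔ (x : G) ∈ T a J := fun x =>
    (map_eq_one_iff_of_ker hk).trans ⟨fun e => e.2, fun e => ⟨x.2, e⟩⟩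
  have o2 : orderOf (f ⟨v, hv⟩) = 2 := orderOf_eq_two'
    (by rw [← map_mul, k1]; show v * v ∈ _; rw [vv]; exact T_self h.pc) (fun e => h.no4 hv vv ((k1 _).1 e))
  have z := _root_.L.zstar X _ o2 fun g hg => by
    obtain ⟨g, rfl⟩ := hf g
    rw [← mul_inv_eq_one, ← map_inv, ← map_inv, ← map_mul, ← map_mul, ← map_mul, k1]
    refine hc g g.2 ((k1 ⁅g * ⟨v, hv⟩ * g⁻¹, ⟨v, hv⟩⁆).1 ?_)
    rw [map_commutatorElement, map_mul, map_mul, map_inv]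
    exact commutatorElement_eq_one_iff_mul_comm.2 hg.symm
  have n1 : J ≤ Nor (pre f (pPrimeCore 2 X)) :=
    le_normalizer_pre le_rfl le_normalizer_of_normal
  rcases h.pc.pqs.normal _ (pre_le _) n1 with e | e
  · have : v ∈ pre f (pPrimeCore 2 X) := e.symm ▸ hv
    obtain ⟨_, m⟩ := mem_pre.1 this
    exact not_mem_of_coprime (coprime_card_pPrimeCore 2 X) o2 m
  · have e1 : ⁅J, zpowers v⁆ ≤ pre f (pPrimeCore 2 X) :=
      (le_cMod_iff.1 (zpowers_le.2 ⟨n1 hv, fun k hk => mem_pre.2 ⟨mul_mem (mul_mem (mul_mem hk hv)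
        (inv_mem hk)) (inv_mem hv), by
          have := z (f ⟨k, hk⟩)
          rwa [← map_inv, ← map_inv, ← map_mul, ← map_mul, ← map_mul] at this⟩⟩)).2
    rw [commutator_comm] at e1
    have lo := le_normalizer_pPrimeCoreIn 2 (Cen1 a)
    have e2 := commutator_le_of_perfect h.pc.perfect (h.pc.le.trans lo)
      ((zpowers_le.2 (h.pc.le hv)).trans lo)
      ((commutator_mono e1 le_rfl).trans (e.trans h.pc.sn.pPrimeCoreIn_le))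
    rw [commutator_comm] at e2
    exact h.no4 hv vv (T_of (h.pc.le hv) fun k hk =>
      e2 (commutator_mem_commutator hk (mem_zpowers v)))

/-- `2`-components of `C(a)` on which `b` acts nontrivially -/
structure La (a b : G) (L : Subgroup G) : Prop where
  pc : PC a L
  nt : b ∉ T a L

theorem La.conj (h : La a b L) (g : G) : La (g * a * g⁻¹) (g * b * g⁻¹) (conjS g L) :=
  ⟨h.pc.conj g, fun e => h.nt (by
    have := T_conj e g⁻¹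
    rwa [conjS_inv_conjS, show g⁻¹ * (g * b * g⁻¹) * g⁻¹⁻¹ = b by group,
      show g⁻¹ * (g * a * g⁻¹) * g⁻¹⁻¹ = a by group] at this)⟩

theorem La.conjD (h : La a b L) (h1 : g ∈ Cen1 a) (h2 : g ∈ Cen1 b) : La a b (conjS g L) := by
  have := h.conj g
  rwa [c1' h1, c1' h2] at this

/-- `θ` interchanges `a` and `b` -/
structure Sw (a b θ : G) : Prop where
  l : θ * a * θ⁻¹ = b
  r : θ * b * θ⁻¹ = a

theorem Sw.inv (h : Sw a b θ) : Sw a b θ⁻¹ :=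
  ⟨by rw [← h.r]; group, by rw [← h.l]; group⟩

theorem Sw.symm (h : Sw a b θ) : Sw b a θ := ⟨h.r, h.l⟩

theorem Sw.la (h : Sw a b θ) (hL : La a b L) : La b a (conjS θ L) := by
  have := hL.conj θ
  rwa [h.l, h.r] at this

theorem Sw.cen (h : Sw a b θ) (hx : x ∈ Cen1 a) : θ * x * θ⁻¹ ∈ Cen1 b := by
  rw [← h.l]
  exact (conjS_centralizer_singleton θ a).le (conj_mem_conjS hx)

theorem Sw.D (h : Sw a b θ) (hx : x ∈ Cen1 a ⊓ Cen1 b) : θ * x * θ⁻¹ ∈ Cen1 a ⊓ Cen1 b :=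
  ⟨h.symm.cen hx.2, h.cen hx.1⟩

theorem Sw.mulD (h : Sw a b θ) (h1 : g ∈ Cen1 a) (h2 : g ∈ Cen1 b) : Sw a b (g * θ) :=
  ⟨by rw [← c1' h2, ← h.l]; group, by rw [← c1' h1, ← h.r]; group⟩

theorem alg1 (e1 : y * (v * y * v⁻¹) = v * y * v⁻¹ * y) (e2 : v * (y * v * y⁻¹) = y * v * y⁻¹ * v) :
    y * v * y⁻¹ * (y * v * y⁻¹) = v * (y * y * v * (y * y)⁻¹) := by
  symm
  calc v * (y * y * v * (y * y)⁻¹) = v * (y * y * (y * (v * y * v⁻¹))⁻¹) * (y * v * y⁻¹) := by group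
    _ = v * (y * v * y⁻¹) * v⁻¹ * (y * v * y⁻¹) := by rw [e1]; group
    _ = _ := by rw [e2]; group

/-- the configuration of a counterexample -/
structure Cx (J K : Subgroup G) (a b y : G) (S : Subgroup G) : Prop where
  hJ : U J a
  hK : U K b
  ne : a ≠ b
  bn : b ∈ Nor J
  an : a ∈ Nor K
  bT : b ∉ T a J
  aT : a ∉ T b K
  yK : y ∈ K
  ya : y ∈ Cen1 a
  yy : y * y ≠ 1
  yN : y ∉ Nor J
  y2 : y * y ∈ Nor J
  syl : IsSylowOf 2 S (NS a b hJ.sq)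
  yS : y ∈ S

namespace Cx

variable (h : Cx J K a b y S)
include h

theorem ba : b ∈ Cen1 a := h.hJ.cen h.bn

theorem ab : a ∈ Cen1 b := c1s h.ba

theorem yb : y ∈ Cen1 b := h.hK.pc.le h.yK

theorem two : IsPGroup 2 S := h.syl.isPGroup

theorem aK : a ∉ K := fun e => (h.hK.uq a e h.hJ.sq).elim h.hJ.ne h.ne

theorem laJ : La a b J := ⟨h.hJ.pc, h.bT⟩

theorem laK : La b a K := ⟨h.hK.pc, h.aT⟩

theorem sw : ∃ θ, Sw a b θ := by
  obtain ⟨r, hr, e1⟩ := h.hJ.s3 h.hK.sq h.bn h.bT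
  obtain ⟨s, hs, e2⟩ := h.hK.s3 h.hJ.sq h.an h.aT
  have e3 := c1' (h.hJ.pc.le hr)
  have e4 := c1' (h.hK.pc.le hs)
  refine ⟨s * r * s, ?_, ?_⟩
  · calc s * r * s * a * (s * r * s)⁻¹ = s * (r * (s * a * s⁻¹) * r⁻¹) * s⁻¹ := by group
      _ = s * (r * b * r⁻¹ * (r * a * r⁻¹)) * s⁻¹ := by rw [e2]; group
      _ = s * (a * (b * a)) * s⁻¹ := by rw [e1, e3, mul_assoc a]
      _ = b := by rw [c1.1 h.ba, ← mul_assoc a, h.hJ.sq, one_mul, e4]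
  · calc s * r * s * b * (s * r * s)⁻¹ = s * (r * (s * b * s⁻¹) * r⁻¹) * s⁻¹ := by group
      _ = s * (a * b) * s⁻¹ := by rw [e4, e1]
      _ = s * a * s⁻¹ * (s * b * s⁻¹) := by group
      _ = a := by rw [e2, e4, c1.1 h.ba, mul_assoc, h.hK.sq, mul_one]

theorem hJ' : U (conjS y J) a := h.hJ.conjC h.ya

theorem ne' : J ≠ conjS y J := ne_conj h.yN

theorem cS (hx : x ∈ S) : y * x * y⁻¹ ∈ S := mul_mem (mul_mem h.yS hx) (inv_mem h.yS)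

theorem cT (hx : x ∈ J) : y * x * y⁻¹ ∈ T a J :=
  T_of_ne h.hJ.pc h.hJ'.pc h.ne' (conj_mem_conjS hx)

theorem cm (h1 : x ∈ S) (h2 : x ∈ J) (h3 : v ∈ S) (h4 : v ∈ J) :
    x * (y * v * y⁻¹) = y * v * y⁻¹ * x := comm2 h.two h1 h2 (h.cS h3) (h.cT h4)

theorem sq' (vv : v * v = a) : y * v * y⁻¹ * (y * v * y⁻¹) = a := by rw [conj_mul, vv, c1' h.ya]

theorem bz : b ∈ zpowers (y * y) := by
  obtain ⟨_, ⟨n, rfl⟩, e⟩ := h.hK.ex4 h.yK (P2.of_mem h.two h.yS) h.yy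
  exact ⟨n, ((Commute.refl y).mul_zpow n).trans e⟩

theorem aS : a ∈ S := by
  obtain ⟨g, hg, e⟩ := (P2.of_sq h.hJ.sq).into h.syl ⟨rfl, Or.inl (c1' h.ab)⟩
  rwa [c1' (NS_le hg)] at e

theorem sylD {X : Subgroup G} (s : SN X L) (hD : Cen1 a ⊓ Cen1 b ≤ X) :
    IsSylowOf 2 (S ⊓ (L ⊓ (Cen1 a ⊓ Cen1 b))) (L ⊓ (Cen1 a ⊓ Cen1 b)) := by
  have s1 := s.inf_right (Cen1 a ⊓ Cen1 b)
  rw [inf_eq_right.2 hD] at s1
  exact H4.IsSylowOf.inf_of_sn h.syl (s1.trans (SN.of_normal D_le NS_nor))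

theorem Sa (hx : x ∈ S) : x ∈ Cen1 a := NS_le (h.syl.le hx)

theorem c_sq (h1 : v ∈ S) (h2 : v ∈ J) (vv : v * v = a) :
    y * v * y⁻¹ * v⁻¹ * (y * v * y⁻¹ * v⁻¹) = 1 := by
  have e : v⁻¹ * (y * v * y⁻¹) = y * v * y⁻¹ * v⁻¹ := (Commute.inv_left (h.cm h1 h2 h1 h2)).eq
  calc y * v * y⁻¹ * v⁻¹ * (y * v * y⁻¹ * v⁻¹)
      = y * v * y⁻¹ * (v⁻¹ * (y * v * y⁻¹)) * v⁻¹ := by group
    _ = y * v * y⁻¹ * (y * v * y⁻¹) * (v * v)⁻¹ := by rw [e]; group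
    _ = 1 := by rw [h.sq' vv, vv, mul_inv_cancel]

theorem c_J (h2 : v ∈ J) (vv : v * v = a) : y * v * y⁻¹ * v⁻¹ ∉ J := fun e => by
  have e1 : y * v * y⁻¹ ∈ J := by simpa using mul_mem e h2
  exact h.hJ.no4 e1 (h.sq' vv) (h.cT h2)

theorem kc1 (h1 : v ∈ S) (h2 : v ∈ J) (vv : v * v = a) (hn : v ∈ Nor K) :
    y * v * y⁻¹ * v⁻¹ = b := by
  refine (h.hK.uq _ ?_ (h.c_sq h1 h2 vv)).resolve_left fun e => h.c_J h2 vv (e ▸ one_mem _)
  rw [mul_assoc, mul_assoc, ← mul_assoc v]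
  exact mul_mem h.yK (conj_mem_of_mem_normalizer hn (inv_mem h.yK))

theorem cyT (h3 : v ∈ Cen1 b) (hn : v ∉ Nor K) : v * y * v⁻¹ ∈ T b K :=
  T_of_ne h.hK.pc (h.hK.conjC h3).pc (ne_conj hn) (conj_mem_conjS h.yK)

theorem cy (h1 : v ∈ S) (h3 : v ∈ Cen1 b) (hn : v ∉ Nor K) (hx : x ∈ S) (hK : x ∈ K) :
    x * (v * y * v⁻¹) = v * y * v⁻¹ * x :=
  comm2 h.two hx hK (mul_mem (mul_mem h1 h.yS) (inv_mem h1)) (h.cyT h3 hn)

theorem kc2 (h1 : v ∈ S) (h2 : v ∈ J) (h3 : v ∈ Cen1 b) (hn : v ∉ Nor K) :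
    v * v = a ∧ y * y = b := by
  have e1 := h.cy h1 h3 hn h.yS h.yK
  have e2 := h.cm h1 h2 h1 h2
  have p := P2.of_mem h.two (mul_mem (h.cS h1) (h.cS h1))
  have vv : v * v = a := by
    rcases h.hJ.T2 (alg1 e1 e2 ▸ mul_mem h2 (conj_mem_of_mem_normalizer h.y2 h2)) p
      (mul_mem (h.cT h2) (h.cT h2)) with e | e
    · rw [conj_mul, conj_eq_one_iff] at e
      rcases h.hJ.uq v h2 e with e | e
      · exact absurd (e ▸ one_mem _) hn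
      · exact absurd (e ▸ h.an) hn
    · rw [conj_mul, ← c1' h.ya] at e
      exact mul_left_cancel (mul_right_cancel e)
  refine ⟨vv, (h.hK.T2 (mul_mem h.yK h.yK) (P2.of_mem h.two (mul_mem h.yS h.yS)) ?_).resolve_left
    h.yy⟩
  have e3 := alg1 e2 e1
  rw [vv, c1' (c1s h.ya)] at e3
  exact e3 ▸ mul_mem (h.cyT h3 hn) (h.cyT h3 hn)

theorem laK2 {L1 L2 : Subgroup G} {u w : G} (h1 : PC b L1) (h2 : PC b L2) (hu : u ∈ L1)
    (hw : w ∈ L2) (e : a = u * w) (hL : La b a L) : L = L1 ∨ L = L2 := by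
  by_contra hc
  push Not at hc
  exact hL.nt (e ▸ mul_mem (T_of_ne hL.pc h1 hc.1 hu) (T_of_ne hL.pc h2 hc.2 hw))

theorem rb (h1 : r * b * r⁻¹ = a * b) : y * r * y⁻¹ * b * (y * r * y⁻¹)⁻¹ = a * b := by
  calc y * r * y⁻¹ * b * (y * r * y⁻¹)⁻¹ = y * (r * (y⁻¹ * b * y⁻¹⁻¹) * r⁻¹) * y⁻¹ := by group
    _ = y * a * y⁻¹ * (y * b * y⁻¹) := by rw [c1' (inv_mem h.yb), h1]; group
    _ = _ := by rw [c1' h.ya, c1' h.yb]

theorem mulb {s : G} (h0 : r ∈ Cen1 a) (h1 : r * b * r⁻¹ = a * b) (h2 : s * b * s⁻¹ = a * b) :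
    r * s ∈ Cen1 b := c1.2 (mul_inv_eq_iff_eq_mul.1 (by
  calc r * s * b * (r * s)⁻¹ = r * (s * b * s⁻¹) * r⁻¹ := by group
    _ = r * a * r⁻¹ * (r * b * r⁻¹) := by rw [h2]; group
    _ = b := by rw [c1' h0, h1, ← mul_assoc, h.hJ.sq, one_mul]))

theorem invb (h0 : r ∈ Cen1 a) (h1 : r * b * r⁻¹ = a * b) : r⁻¹ * b * r⁻¹⁻¹ = a * b := by
  have : r⁻¹ ∈ NS a b h.hJ.sq := inv_mem ⟨c1.1 h0, Or.inr h1⟩
  refine this.2.resolve_left fun e => h.hJ.ne ?_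
  have e1 : r * b * r⁻¹ = b := by
    conv_lhs => rw [← e]
    group
  exact mul_eq_right.1 (h1.symm.trans e1)

theorem nb (h1 : r * b * r⁻¹ = a * b) : r ∉ Cen1 b := fun e =>
  h.hJ.ne (mul_eq_right.1 (h1.symm.trans (c1' e)))

theorem rr (h1 : r ∈ S) (h2 : r ∈ J) (h3 : r * b * r⁻¹ = a * b) (h4 : r * r = a)
    (h5 : y * y * r * (y * y)⁻¹ = a * r) {t : G} (ht : t = r * (y * r * y⁻¹)) :
    t ∈ S ∧ t ∈ Cen1 b ∧ t * t = 1 ∧ t * y * t⁻¹ = a * y ∧ t ∉ Nor K ∧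
      ∀ L, La b a L → L = K ∨ L = conjS t K := by
  have tS : t ∈ S := ht ▸ mul_mem h1 (h.cS h1)
  have tb : t ∈ Cen1 b := ht ▸ h.mulb (h.Sa h1) h3 (h.rb h3)
  have e0 := h.cm h1 h2 h1 h2
  have tt : t * t = 1 := by
    calc t * t = r * (y * r * y⁻¹ * r) * (y * r * y⁻¹) := by rw [ht]; group
      _ = r * r * (y * r * y⁻¹ * (y * r * y⁻¹)) := by rw [← e0]; group
      _ = 1 := by rw [h4, h.sq' h4, h.hJ.sq]
  have e1 : y * t * y⁻¹ = a * t := by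
    calc y * t * y⁻¹ = y * r * y⁻¹ * (y * y * r * (y * y)⁻¹) := by rw [ht]; group
      _ = y * r * y⁻¹ * a * r := by rw [h5, mul_assoc _ a]
      _ = a * t := by rw [c1.1 (h.Sa (h.cS h1)), mul_assoc a, ← e0, ht]
  have e2 : t * y * t⁻¹ = a * y := by
    calc t * y * t⁻¹ = a⁻¹ * (a * t) * y * t⁻¹ := by group
      _ = a * y := by rw [← e1, h.hJ.ia]; group
  have e3 : a = t * y * t⁻¹ * y⁻¹ := by rw [e2, mul_inv_cancel_right]
  refine ⟨tS, tb, tt, e2, fun e => h.aK ?_, fun L hL => (h.laK2 (h.hK.conjC tb).pc h.hK.pc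
    (conj_mem_conjS h.yK) (inv_mem h.yK) e3 hL).symm⟩
  exact e3 ▸ mul_mem (conj_mem_of_mem_normalizer e h.yK) (inv_mem h.yK)

theorem alpha (hU : ∀ u ∈ S, u ∈ J → u ∈ Cen1 b → u = 1 ∨ u = a) : False := by
  obtain ⟨r, h1, h2, h3⟩ := h.hJ.rho h.hK.sq h.bn h.bT h.syl
  have h4 : r * r = a := (hU _ (mul_mem h1 h1) (mul_mem h2 h2)
    (h.mulb (h.Sa h1) h3 h3)).resolve_left fun e => h.nb h3 (by
      rcases h.hJ.uq r h2 e with e | e <;> rw [e]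
      · exact one_mem _
      · exact h.ab)
  have h5 : y * y * r * (y * y)⁻¹ = a * r := by
    have e := h.rb (h.rb h3)
    rw [show y * (y * r * y⁻¹) * y⁻¹ = y * y * r * (y * y)⁻¹ by group] at e
    have m : y * y * r * (y * y)⁻¹ ∈ S :=
      mul_mem (mul_mem (mul_mem h.yS h.yS) h1) (inv_mem (mul_mem h.yS h.yS))
    rcases hU _ (mul_mem m (inv_mem h1)) (mul_mem (conj_mem_of_mem_normalizer h.y2 h2) (inv_mem h2))
      (h.mulb (h.Sa m) e (h.invb (h.Sa h1) h3)) with e1 | e1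
    · exact absurd (c1s (zpowers_le.2 (c1.2 (mul_inv_eq_iff_eq_mul.1 (mul_inv_eq_one.1 e1))) h.bz))
        (h.nb h3)
    · exact mul_inv_eq_iff_eq_mul.1 e1
  obtain ⟨tS, tb, -, e2, -, hl⟩ := h.rr h1 h2 h3 h4 h5 rfl
  obtain ⟨θ, hθ⟩ := h.sw
  obtain ⟨w, m1, m2, m3⟩ : ∃ w ∈ conjS θ J, w ∈ S ⊓ Cen1 b ∧ w * w ≠ 1 := by
    rcases hl _ (hθ.la h.laJ) with e | e <;> rw [e]
    · exact ⟨y, h.yK, ⟨h.yS, h.yb⟩, h.yy⟩
    · exact ⟨_, conj_mem_conjS h.yK, mem_inf.2 ⟨mul_mem (mul_mem tS h.yS) (inv_mem tS),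
        mul_mem (mul_mem tb h.yb) (inv_mem tb)⟩, by rw [conj_mul, Ne, conj_eq_one_iff]; exact h.yy⟩
  have m4 := hθ.inv.D ⟨h.Sa m2.1, m2.2⟩
  obtain ⟨k, hk, e⟩ := ((P2.of_mem h.two m2.1).conj θ⁻¹).into (h.sylD h.hJ.pc.sn inf_le_left)
    ⟨by rw [inv_inv]; exact mem_conjS.1 m1, m4⟩
  have : k * (θ⁻¹ * w * θ⁻¹⁻¹) * k⁻¹ * (k * (θ⁻¹ * w * θ⁻¹⁻¹) * k⁻¹) = 1 := by
    rcases hU _ e.1 e.2.1 e.2.2.2 with e1 | e1 <;> rw [e1]
    · exact one_mul 1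
    · exact h.hJ.sq
  rw [conj_mul, conj_mul, conj_eq_one_iff, conj_eq_one_iff] at this
  exact m3 this

theorem beta (h1 : v ∈ S) (h2 : v ∈ J) (vv : v * v = a)
    (hU : ∀ u ∈ S, u ∈ J → u ∈ Cen1 b → u ∈ Nor K) (h3 : v ∈ Cen1 b) : False := by
  have e0 := h.kc1 h1 h2 vv (hU v h1 h2 h3)
  obtain ⟨θ, hθ⟩ := h.sw
  have l1 : ∀ L, La a b L → L = J ∨ L = conjS y J := fun L hL => by
    by_contra hc
    push Not at hc
    exact hL.nt (e0 ▸ mul_mem (T_of_ne hL.pc h.hJ'.pc hc.2 (conj_mem_conjS h2))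
      (T_of_ne hL.pc h.hJ.pc hc.1 (inv_mem h2)))
  have l2 : ∀ L, La b a L → conjS θ L = J ∨ conjS θ L = conjS y J :=
    fun L hL => l1 _ (hθ.symm.la hL)
  have p1 : ∀ d ∈ Cen1 a ⊓ Cen1 b, d ∈ Nor K → ∀ L, La b a L → d ∈ Nor L := fun d hd hn L hL => by
    rw [mem_normalizer_iff_conjS]
    by_cases e : L = K
    · rw [e]; exact mem_normalizer_iff_conjS.1 hn
    have e' : conjS d L ≠ K := fun e1 =>
      e (conjS_injective d (e1.trans (mem_normalizer_iff_conjS.1 hn).symm))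
    apply conjS_injective θ
    have q1 : conjS θ L ≠ conjS θ K := fun e1 => e (conjS_injective θ e1)
    have q2 : conjS θ (conjS d L) ≠ conjS θ K := fun e1 => e' (conjS_injective θ e1)
    rcases l2 _ h.laK with a1 | a1 <;> rcases l2 _ hL with a2 | a2 <;>
      rcases l2 _ (hL.conjD hd.2 hd.1) with a3 | a3 <;>
      first | exact a3.trans a2.symm | exact absurd (a2.trans a1.symm) q1 |
        exact absurd (a3.trans a1.symm) q2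
  have p2 : ∀ d, (∀ L, La b a L → d ∈ Nor L) → ∀ g ∈ Cen1 a ⊓ Cen1 b, ∀ L, La b a L →
      g * d * g⁻¹ ∈ Nor L := fun d hd g hg L hL => by
    have := conj_mem_conjS (g := g) (hd _ (hL.conjD (inv_mem hg.2) (inv_mem hg.1)))
    rwa [conjS_normalizer, conjS_conjS_inv] at this
  have p3 : ∀ w ∈ J ⊓ (Cen1 a ⊓ Cen1 b), P2 w → ∀ L, La b a L → w ∈ Nor L := fun w hw p L hL => by
    obtain ⟨k, hk, e⟩ := p.into (h.sylD h.hJ.pc.sn inf_le_left) hw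
    have := p2 _ (p1 _ e.2.2 (hU _ e.1 e.2.1 e.2.2.2)) _ (inv_mem hk.2) L hL
    rwa [show k⁻¹ * (k * w * k⁻¹) * k⁻¹⁻¹ = w by group] at this
  have yD : y ∈ Cen1 a ⊓ Cen1 b := ⟨h.ya, h.yb⟩
  have m := hθ.D yD
  have p := (P2.of_mem h.two h.yS).conj θ
  have : θ * y * θ⁻¹ ∈ Nor (conjS θ J) := by
    have mK := conj_mem_conjS (g := θ) h.yK
    rcases l2 _ h.laK with e | e <;> rw [e] at mK
    · exact p3 _ ⟨mK, m⟩ p _ (hθ.la h.laJ)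
    · have := p2 _ (p3 _ (mem_inf.2 ⟨by rw [inv_inv]; exact mem_conjS.1 mK,
        mul_mem (mul_mem (inv_mem yD) m) (inv_mem (inv_mem yD))⟩) (p.conj y⁻¹)) _ yD _ (hθ.la h.laJ)
      rwa [show y * (y⁻¹ * (θ * y * θ⁻¹) * y⁻¹⁻¹) * y⁻¹ = θ * y * θ⁻¹ by group] at this
  exact h.yN (conj_mem_conjS_iff.1 ((conjS_normalizer θ J).ge this))

end Cx

end IC
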