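import Cfsg.Agent.IC.D

/-! Intrinsic 2-components with a unique involution: the remaining cases. -/

set_option autoImplicit false
set_option linter.unusedVariables false
set_option linter.unusedSectionVars false

namespace IC

open Cfsg Subgroup FT H4 H5
open scoped commutatorElement

universe u

variable {G : Type u} [Group G] [Finite G] {J K L M S : Subgroup G} {a b g x y v r d θ m : G}

theorem U.inv4 (h : U J a) (vv : v * v = a) : v⁻¹ = a * v :=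
  inv_eq_of_mul_eq_one_left (by rw [mul_assoc, vv, h.sq])

theorem U.near (h : U J a) (h1 : x ∈ J) (h2 : v ∈ J) (xx : x * x = a) (vv : v * v = a)
    (c : x * v = v * x) : x = v ∨ x = a * v := by
  rcases h.uq _ (mul_mem h1 (inv_mem h2)) (by
    calc x * v⁻¹ * (x * v⁻¹) = x * (x⁻¹ * v)⁻¹ * v⁻¹ := by group
      _ = x * x * (v * v)⁻¹ := by rw [(Commute.inv_left c).eq]; group
      _ = 1 := by rw [xx, vv, mul_inv_cancel]) with e | e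
  · exact Or.inl (mul_inv_eq_one.1 e)
  · exact Or.inr (mul_inv_eq_iff_eq_mul.1 e)

/-- stabilizer of the coset of `v` modulo the elements acting trivially -/
def B3 (a v : G) (J : Subgroup G) : Subgroup G where
  carrier := {x | x ∈ Cen1 a ∧ x ∈ Nor J ∧ x * v * x⁻¹ * v⁻¹ ∈ T a J}
  one_mem' := ⟨one_mem _, one_mem _, by simp⟩
  mul_mem' := fun {x z} hx hz => ⟨mul_mem hx.1 hz.1, mul_mem hx.2.1 hz.2.1, by
    rw [show x * z * v * (x * z)⁻¹ * v⁻¹ = x * (z * v * z⁻¹ * v⁻¹) * x⁻¹ * (x * v * x⁻¹ * v⁻¹) by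
      group]
    exact mul_mem (T_nor hz.2.2 hx.1 hx.2.1) hx.2.2⟩
  inv_mem' := fun {x} hx => ⟨inv_mem hx.1, inv_mem hx.2.1, by
    rw [show x⁻¹ * v * x⁻¹⁻¹ * v⁻¹ = x⁻¹ * (x * v * x⁻¹ * v⁻¹)⁻¹ * x⁻¹⁻¹ by group]
    exact T_nor (inv_mem hx.2.2) (inv_mem hx.1) (inv_mem hx.2.1)⟩

namespace Cx

variable (h : Cx J K a b y S) (h1 : v ∈ S) (h2 : v ∈ J) (h3 : v ∈ Cen1 b) (hn : v ∉ Nor K)
include h h1 h2 h3 hn

theorem small (m1 : m ∈ S) (m2 : m ∈ J) (m3 : m ∈ Nor K) : m = 1 ∨ m = a := by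
  by_cases e : m * m = 1
  · exact h.hJ.uq m m2 e
  obtain ⟨w, hw, ww⟩ := h.hJ.ex4 m2 (P2.of_mem h.two m1) e
  have w1 := zpowers_le.2 m1 hw
  have w2 := zpowers_le.2 m2 hw
  have w3 := zpowers_le.2 m3 hw
  have e1 := h.kc1 w1 w2 ww w3
  have e2 : w ∈ Cen1 v := by
    rw [show w = b⁻¹ * (y * w * y⁻¹) by rw [← e1]; group]
    exact mul_mem (inv_mem (c1s h3)) (c1.2 (h.cm h1 h2 w1 w2).symm)
  rcases h.hJ.near h2 w2 (h.kc2 h1 h2 h3 hn).1 ww (c1.1 e2).symm with e | e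
  · exact absurd (e ▸ w3) hn
  · exact absurd (e ▸ mul_mem h.an w3) hn

theorem gam2 (m1 : m ∈ S) (m2 : m ∈ J) (m3 : m ∈ Cen1 b) :
    m = 1 ∨ m = a ∨ m = v ∨ m = a * v := by
  by_contra hc
  push Not at hc
  obtain ⟨vv, yy⟩ := h.kc2 h1 h2 h3 hn
  have n2 : m ∉ Nor K := fun e => (h.small h1 h2 h3 hn m1 m2 e).elim hc.1 hc.2.1
  have n3 : v * m ∉ Nor K := fun e => by
    rcases h.small h1 h2 h3 hn (mul_mem h1 m1) (mul_mem h2 m2) e with e | e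
    · exact hc.2.2.2 ((eq_inv_of_mul_eq_one_right e).trans (h.hJ.inv4 vv))
    · exact hc.2.2.1 (mul_left_cancel (e.trans vv.symm))
  have mm := (h.kc2 m1 m2 m3 n2).1
  have m4 := (h.kc2 (mul_mem h1 m1) (mul_mem h2 m2) (mul_mem h3 m3) n3).1
  have e1 : m * v = a * (v * m) := by
    calc m * v = v⁻¹ * (v * m * (v * m)) * m⁻¹ := by group
      _ = v⁻¹ * (m * m) * m⁻¹ := by rw [m4, mm]
      _ = _ := by rw [h.hJ.inv4 vv]; group
  have e2 : a = v * m * y * (v * m)⁻¹ * (v * y * v⁻¹)⁻¹ * y * (m * y * m⁻¹)⁻¹ := by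
    have c := (Commute.inv_left (h.cm h1 h2 m1 m2)).eq
    symm
    calc v * m * y * (v * m)⁻¹ * (v * y * v⁻¹)⁻¹ * y * (m * y * m⁻¹)⁻¹
        = v * m * (y * (v * m) * y⁻¹)⁻¹ * (y * v * y⁻¹) * (v⁻¹ * (y * m * y⁻¹)) * m⁻¹ := by group
      _ = v * m * (m * v)⁻¹ := by rw [c]; group
      _ = a := by rw [e1, mul_inv_rev, mul_inv_cancel_left, h.hJ.ia]
  have e3 : ∀ x ∈ S, x ∈ K → x * y = y * x := fun x x1 x2 => by
    have : y = v * y * v⁻¹ * (v * m * y * (v * m)⁻¹)⁻¹ * a * (m * y * m⁻¹) := by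
      rw [e2]; group
    refine (c1.1 (?_ : y ∈ Cen1 x)).symm
    rw [this]
    exact mul_mem (mul_mem (mul_mem (c1.2 (h.cy h1 h3 hn x1 x2).symm) (inv_mem (c1.2
      (h.cy (mul_mem h1 m1) (mul_mem h3 m3) n3 x1 x2).symm))) (c1s (h.Sa x1)))
      (c1.2 (h.cy m1 m3 n2 x1 x2).symm)
  obtain ⟨θ, hθ⟩ := h.sw
  obtain ⟨k, k1, k2, e4⟩ : ∃ k ∈ S, k ∈ Cen1 b ∧ conjS θ J = conjS k K := by
    by_contra hc
    push Not at hc
    have l := hθ.la h.laJ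
    have t := fun k k1 k2 => T_of_ne l.pc (h.hK.conjC k2).pc (hc k k1 k2)
      (conj_mem_conjS (g := k) h.yK)
    have t1 := t 1 (one_mem _) (one_mem _)
    rw [one_mul, inv_one, mul_one] at t1
    exact l.nt (e2 ▸ mul_mem (mul_mem (mul_mem (t _ (mul_mem h1 m1) (mul_mem h3 m3))
      (inv_mem (t _ h1 h3))) t1) (inv_mem (t _ m1 m3)))
  have hφ := hθ.mulD (inv_mem (h.Sa k1)) (inv_mem k2)
  have e5 : conjS (k⁻¹ * θ) J = K := by rw [← conjS_conjS, e4, conjS_inv_conjS]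
  obtain ⟨j, hj, e6⟩ := (h.sylD h.hK.pc.sn inf_le_right).exists_conj_le
    (Q := conjS (k⁻¹ * θ) (S ⊓ (J ⊓ (Cen1 a ⊓ Cen1 b)))) ((h.two.to_le inf_le_left).map _) (by
      rintro _ ⟨x, hx, rfl⟩
      exact mem_inf.2 ⟨e5 ▸ conj_mem_conjS hx.2.1, hφ.D hx.2.2⟩)
  have hψ := hφ.mulD hj.2.1 hj.2.2
  have key : ∀ x ∈ S, x ∈ J → x ∈ Cen1 b → x * x = a →
      j * (k⁻¹ * θ) * x * (j * (k⁻¹ * θ))⁻¹ ∈ zpowers y := fun x x1 x2 x3 xx => by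
    have e7 := e6 (conj_mem_conjS (conj_mem_conjS (mem_inf.2 ⟨x1, mem_inf.2 ⟨x2,
      mem_inf.2 ⟨h.Sa x1, x3⟩⟩⟩)))
    rw [show j * (k⁻¹ * θ * x * (k⁻¹ * θ)⁻¹) * j⁻¹ = j * (k⁻¹ * θ) * x * (j * (k⁻¹ * θ))⁻¹ by
      group] at e7
    rcases h.hK.near e7.2.1 h.yK (by rw [conj_mul, xx, hψ.l]) yy (e3 _ e7.1 e7.2.1) with e | e <;>
      rw [e]
    · exact mem_zpowers y
    · exact mul_mem (yy ▸ mul_mem (mem_zpowers y) (mem_zpowers y)) (mem_zpowers y)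
  obtain ⟨i1, e7⟩ := key v h1 h2 h3 vv
  obtain ⟨i2, e8⟩ := key m m1 m2 m3 mm
  have e9 := (Commute.zpow_zpow_self y i1 i2).eq
  simp only at e7 e8
  rw [e7, e8, conj_mul, conj_mul, e1] at e9
  exact h.hJ.ne (mul_eq_right.1 (mul_left_cancel (mul_right_cancel e9)).symm)

theorem y2r (r1 : r ∈ S) (r3 : r * b * r⁻¹ = a * b) : y * y * r * (y * y)⁻¹ = a * r := by
  rw [(h.kc2 h1 h2 h3 hn).2]
  calc b * r * b⁻¹ = a⁻¹ * (a * b) * r * b⁻¹ := by group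
    _ = _ := by rw [← r3, h.hJ.ia]; group

theorem ac_sq : a * (y * v * y⁻¹ * v⁻¹) * (a * (y * v * y⁻¹ * v⁻¹)) = 1 := by
  have e := c1.1 (h.Sa (mul_mem (h.cS h1) (inv_mem h1)))
  rw [mul_assoc, ← mul_assoc _ a, e, mul_assoc, h.c_sq h1 h2 (h.kc2 h1 h2 h3 hn).1, mul_one, h.hJ.sq]

theorem ac_ne : a * (y * v * y⁻¹ * v⁻¹) ≠ 1 := fun e => h.c_J h2 (h.kc2 h1 h2 h3 hn).1
  (eq_inv_of_mul_eq_one_right e ▸ inv_mem h.hJ.mem)

theorem rsq (r1 : r ∈ S) (r2 : r ∈ J) (r3 : r * b * r⁻¹ = a * b) : r * r = a := by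
  have vv := (h.kc2 h1 h2 h3 hn).1
  by_contra hc
  have e0 : ∃ z, (z = 1 ∨ z = a) ∧ r * r = z * v := by
    rcases h.gam2 h1 h2 h3 hn (mul_mem r1 r1) (mul_mem r2 r2) (h.mulb (h.Sa r1) r3 r3) with
      e | e | e | e
    · refine absurd ?_ (h.nb r3)
      rcases h.hJ.uq r r2 e with e | e <;> rw [e]
      · exact one_mem _
      · exact h.ab
    · exact absurd e hc
    · exact ⟨1, Or.inl rfl, by rw [e, one_mul]⟩
    · exact ⟨a, Or.inr rfl, e⟩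
  obtain ⟨z, hz, e0⟩ := e0
  have zc : ∀ x ∈ S, z ∈ Cen1 x := fun x hx => by
    rcases hz with e | e <;> rw [e]
    · exact one_mem _
    · exact c1s (h.Sa hx)
  obtain ⟨t, ht⟩ : ∃ t, t = y * r * y⁻¹ * r⁻¹ := ⟨_, rfl⟩
  have tS : t ∈ S := ht ▸ mul_mem (h.cS r1) (inv_mem r1)
  have tb : t ∈ Cen1 b := ht ▸ h.mulb (h.Sa (h.cS r1)) (h.rb r3) (h.invb (h.Sa r1) r3)
  have c := h.cm r1 r2 r1 r2
  have e1 : y * t * y⁻¹ = a * t⁻¹ := by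
    calc y * t * y⁻¹ = y * y * r * (y * y)⁻¹ * (y * r * y⁻¹)⁻¹ := by rw [ht]; group
      _ = _ := by rw [h.y2r h1 h2 h3 hn r1 r3, ht]; group
  have e2 : t * t = y * v * y⁻¹ * v⁻¹ := by
    calc t * t = y * r * y⁻¹ * (r⁻¹ * (y * r * y⁻¹)) * r⁻¹ := by rw [ht]; group
      _ = y * (r * r) * y⁻¹ * (r * r)⁻¹ := by rw [(Commute.inv_left c).eq]; group
      _ = y * z * y⁻¹ * (y * v * y⁻¹ * v⁻¹) * z⁻¹ := by rw [e0]; group
      _ = _ := by rw [c1' (c1s (zc y h.yS)), c1' (zc _ (mul_mem (h.cS h1) (inv_mem h1)))]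
  have e3 : a * (y * v * y⁻¹ * v⁻¹) = y * (t * y * t⁻¹)⁻¹ := by
    calc a * (y * v * y⁻¹ * v⁻¹) = a * (t * t)⁻¹ := by
          rw [e2, inv_eq_of_mul_eq_one_right (h.c_sq h1 h2 vv)]
      _ = a * t⁻¹ * t⁻¹ := by group
      _ = _ := by rw [← e1]; group
  by_cases tn : t ∈ Nor K
  · have e4 := (h.hK.uq _ (e3 ▸ mul_mem h.yK (inv_mem (conj_mem_of_mem_normalizer tn h.yK)))
      (h.ac_sq h1 h2 h3 hn)).resolve_left (h.ac_ne h1 h2 h3 hn)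
    refine h.nb r3 (c1s (e4 ▸ mul_mem (c1s (h.Sa r1)) (mul_mem (c1.2 (h.cm r1 r2 h1 h2).symm)
      (inv_mem ?_))))
    rw [show v = z⁻¹ * (r * r) by rw [e0]; group]
    exact mul_mem (inv_mem (zc r r1)) (mul_mem (c1.2 rfl) (c1.2 rfl))
  · refine h.aT ?_
    rw [show a = y * ((t * y * t⁻¹)⁻¹ * (v * y * v⁻¹)) * y⁻¹ by
      rw [← mul_assoc, ← e3]; group]
    exact T_nor (mul_mem (inv_mem (h.cyT tb tn)) (h.cyT h3 hn)) h.yb (le_normalizer h.yK)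

theorem bvv : b = y * v * y⁻¹ * v := by
  have vv := (h.kc2 h1 h2 h3 hn).1
  obtain ⟨r, r1, r2, r3⟩ := h.hJ.rho h.hK.sq h.bn h.bT h.syl
  obtain ⟨tS, tb, -, e2, -, hl⟩ := h.rr r1 r2 r3 (h.rsq h1 h2 h3 hn r1 r2 r3)
    (h.y2r h1 h2 h3 hn r1 r3) rfl
  have e3 := (hl _ (h.laK.conjD h3 (h.Sa h1))).resolve_left (ne_conj hn).symm
  have m : a * y ∈ conjS v K := by rw [e3, ← e2]; exact conj_mem_conjS h.yK
  have e4 := ((h.hK.conjC h3).uq _ (by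
    rw [show a * (y * v * y⁻¹ * v⁻¹) = a * y * (v * y * v⁻¹)⁻¹ by group]
    exact mul_mem m (inv_mem (conj_mem_conjS h.yK))) (h.ac_sq h1 h2 h3 hn)).resolve_left
    (h.ac_ne h1 h2 h3 hn)
  rw [← e4, h.hJ.inv4 vv, ← mul_assoc, ← c1.1 (h.Sa (h.cS h1)), mul_assoc, ← mul_assoc a, h.hJ.sq,
    one_mul]

theorem fus : ∃ e ∈ J, e * v * e⁻¹ ∈ S ∧ e * v * e⁻¹ ∉ Cen1 b := by
  have vv := (h.kc2 h1 h2 h3 hn).1
  have eb := h.bvv h1 h2 h3 hn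
  obtain ⟨g, hg, g1, g2⟩ := h.hJ.zq h2 vv
  obtain ⟨W, hW, SW⟩ := exists_isSylowOf_ge (K := B3 a v J) (h.two.to_le (inf_le_left (a := S)))
    inf_le_right
  have jn : ∀ x ∈ J, x ∈ Cen1 a ∧ x ∈ Nor J := fun x hx => ⟨h.hJ.pc.le hx, le_normalizer hx⟩
  have vW : v ∈ W := SW (mem_inf.2 ⟨h1, (jn v h2).1, (jn v h2).2, by simp⟩)
  have vW' : y * v * y⁻¹ ∈ W := SW (mem_inf.2 ⟨h.cS h1, h.Sa (h.cS h1),
    h.hJ.pc.nor h.hJ'.pc (conj_mem_conjS h2), by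
      rw [← h.cm h1 h2 h1 h2, mul_inv_cancel_right, mul_inv_cancel]; exact one_mem _⟩)
  have s1 : S ⊓ J ≤ W ⊓ J := fun x hx => mem_inf.2 ⟨SW (mem_inf.2 ⟨hx.1, (jn x hx.2).1,
    (jn x hx.2).2, by
      have e : x * v * x⁻¹ * v⁻¹ = (y * v * y⁻¹)⁻¹ * (x * b * x⁻¹) * v⁻¹ := by
        rw [eb, ← mul_assoc x, h.cm hx.1 hx.2 h1 h2]; group
      rcases (h.syl.le hx.1).2 with e1 | e1 <;> rw [e, e1]
      · rw [eb, inv_mul_cancel_left, mul_inv_cancel]; exact one_mem _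
      · rw [eb, ← mul_assoc a, ← c1.1 (h.Sa (h.cS h1)), mul_assoc _ a, inv_mul_cancel_left,
          mul_inv_cancel_right]
        exact T_self h.hJ.pc⟩), hx.2⟩
  have s2 : W ⊓ J ≤ J ⊓ NS a b h.hJ.sq := fun w hw => mem_inf.2 ⟨hw.2, c1.1 (jn w hw.2).1, by
    have e : w * b * w⁻¹ = y * v * y⁻¹ * (w * v * w⁻¹ * v⁻¹) * v := by
      rw [eb, ← mul_assoc w, comm2 hW.isPGroup hw.1 hw.2 vW' (h.cT h2)]; group
    rcases h.hJ.T2 (mul_mem (mul_mem (mul_mem hw.2 h2) (inv_mem hw.2)) (inv_mem h2))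
      (P2.of_mem hW.isPGroup (mul_mem (mul_mem (mul_mem hw.1 vW) (inv_mem hw.1)) (inv_mem vW)))
      (hW.le hw.1).2.2 with e1 | e1 <;> rw [e, e1]
    · exact Or.inl (by rw [mul_one, ← eb])
    · exact Or.inr (by rw [c1.1 (h.Sa (h.cS h1)), mul_assoc a, ← eb])⟩
  have s3 := (h.hJ.pc.syl h.syl).eq_of_le (hW.isPGroup.to_le inf_le_left) s1 s2
  have s4 := hW.inf_of_le_normalizer (N := B3 a v J ⊓ J) inf_le_left
    (H4.le_normalizer_inf (hW.le.trans le_normalizer) fun x hx => (hW.le hx).2.1)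
  have m := mul_mem (mul_mem hg h2) (inv_mem hg)
  obtain ⟨k, hk, e⟩ := ((P2.of_mem h.two h1).conj g).into s4
    (mem_inf.2 ⟨⟨(jn _ m).1, (jn _ m).2, g1⟩, m⟩)
  have e1 : k * (g * v * g⁻¹) * k⁻¹ ∈ S ⊓ J := s3 ▸ mem_inf.2 ⟨e.1, e.2.2⟩
  refine ⟨k * g, mul_mem hk.2 hg, ?_⟩
  rw [show k * g * v * (k * g)⁻¹ = k * (g * v * g⁻¹) * k⁻¹ by group]
  refine ⟨e1.1, fun e2 => g2 ?_⟩
  have e3 : k * (g * v * g⁻¹) * k⁻¹ * (k * (g * v * g⁻¹) * k⁻¹) = a := by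
    rw [conj_mul, conj_mul, vv, c1' (jn g hg).1, c1' (jn k hk.2).1]
  have e4 := (inv_mem (mem_inf.1 hk).1).2.2
  rcases h.gam2 h1 h2 h3 hn e1.1 e1.2 e2 with e5 | e5 | e5 | e5
  · rw [e5, one_mul] at e3
    exact absurd e3.symm h.hJ.ne
  · rw [e5, h.hJ.sq] at e3
    exact absurd e3.symm h.hJ.ne
  · rwa [show g * v * g⁻¹ = k⁻¹ * v * k⁻¹⁻¹ by conv_rhs => rw [← e5]
                                               group]
  · rw [show g * v * g⁻¹ * v⁻¹ = k⁻¹ * a * k⁻¹⁻¹ * (k⁻¹ * v * k⁻¹⁻¹ * v⁻¹) by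
      rw [← mul_assoc, conj_mul, ← e5]; group, c1' (inv_mem (jn k hk.2).1)]
    exact mul_mem (T_self h.hJ.pc) e4

theorem gam : False := by
  have yy := (h.kc2 h1 h2 h3 hn).2
  have eb := h.bvv h1 h2 h3 hn
  obtain ⟨e, he, r1, r4⟩ := h.fus h1 h2 h3 hn
  obtain ⟨r, hr⟩ : ∃ r, r = e * v * e⁻¹ := ⟨_, rfl⟩
  have r2 : r ∈ J := hr ▸ mul_mem (mul_mem he h2) (inv_mem he)
  rw [← hr] at r1 r4
  have r3 : r * b * r⁻¹ = a * b := (h.syl.le r1).2.resolve_left fun e =>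
    r4 (c1.2 (mul_inv_eq_iff_eq_mul.1 e))
  obtain ⟨t, ht⟩ : ∃ t, t = r * (y * r * y⁻¹) := ⟨_, rfl⟩
  obtain ⟨tS, tb, tt, e2, tn, -⟩ := h.rr r1 r2 r3 (h.rsq h1 h2 h3 hn r1 r2 r3)
    (h.y2r h1 h2 h3 hn r1 r3) ht
  have lo := le_normalizer_pPrimeCoreIn 2 (Cen1 a)
  have ea := h.hJ.pc.le he
  have ea' : y * e * y⁻¹ ∈ Cen1 a := mul_mem (mul_mem h.ya ea) (inv_mem h.ya)
  obtain ⟨s, hs⟩ : ∃ s, s = e * (y * e * y⁻¹) * b * (e * (y * e * y⁻¹))⁻¹ := ⟨_, rfl⟩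
  have ss : s * s = 1 := by rw [hs, conj_mul, h.hK.sq, mul_one, mul_inv_cancel]
  have o1 : t * s ∈ O (Cen1 a) := by
    have e3 : t * s = t * (⁅e, y * r * y⁻¹⁆ * (y * r * y⁻¹ * (e * ⁅v, y * e * y⁻¹⁆⁻¹ * e⁻¹) *
        (y * r * y⁻¹)⁻¹)) * t⁻¹ := by
      rw [inv_eq_of_mul_eq_one_right tt]
      conv_rhs => rw [mul_assoc t]; enter [2, 2]; rw [ht, h.cm r1 r2 r1 r2]
      rw [hs, hr]
      conv_lhs => rw [eb]
      simp only [commutatorElement_def]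
      group
    rw [e3]
    exact conj_mem_of_le_normalizer lo (h.Sa tS) (mul_mem ((h.cT r2).2 e he)
      (conj_mem_of_le_normalizer lo (h.Sa (h.cS r1))
        (conj_mem_of_le_normalizer lo ea (inv_mem ((h.cT he).2 v h2)))))
  obtain ⟨g, hg, e4⟩ := H9.exists_conj_eq_mul (a := s) (u := t * s)
    ((Nat.coprime_two_right).1 (coprime_orderOf_of_mem (copO _) o1)) (by
      rw [mul_inv_rev, inv_eq_of_mul_eq_one_right ss, inv_eq_of_mul_eq_one_right tt, ← mul_assoc,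
        mul_assoc _ s s, ss, mul_one]) (mem_zpowers _)
  rw [mul_assoc t, ss, mul_one] at e4
  have ga : g * (e * (y * e * y⁻¹)) ∈ Cen1 a :=
    mul_mem (pPrimeCoreIn_le 2 _ (zpowers_le.2 o1 hg)) (mul_mem ea ea')
  have hK' := h.hK.conj (g * (e * (y * e * y⁻¹)))
  rw [show g * (e * (y * e * y⁻¹)) * b * (g * (e * (y * e * y⁻¹)))⁻¹ = t by
    rw [← e4, hs]; group] at hK'
  have an' := (conjS_normalizer _ K).le (conj_mem_conjS (g := g * (e * (y * e * y⁻¹))) h.an)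
  rw [c1' ga] at an'
  have e5 : y * (t * y * t⁻¹) = a * b := by rw [e2, ← mul_assoc, c1.1 h.ya, mul_assoc, yy]
  obtain ⟨K0, hK0, m0⟩ := dg tb tt h.hK.pc (ne_conj tn).symm h.yK
    (e5 ▸ mul_mem (c1s (h.Sa tS)) (c1s tb))
    (by rw [e5, mul_assoc, ← mul_assoc b, c1.1 h.ba, mul_assoc, h.hK.sq, mul_one, h.hJ.sq])
    (by rw [e5]; exact fun e => h.ne ((eq_inv_of_mul_eq_one_left e).trans h.hK.ia))
  have e6 := mul_mem (inv_mem an') (bal h.hK.sq (c1s tb) hK0 hK'.pc (e5 ▸ m0))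
  rw [inv_mul_cancel_left] at e6
  exact tn (h.hK.two hK' e6)

end Cx

theorem Cx.false (h : Cx J K a b y S) : False := by
  by_cases hU : ∀ u ∈ S, u ∈ J → u ∈ Cen1 b → u ∈ Nor K
  · refine h.alpha fun u h1 h2 h3 => ?_
    by_cases e : u * u = 1
    · exact h.hJ.uq u h2 e
    obtain ⟨w, hw, ww⟩ := h.hJ.ex4 h2 (P2.of_mem h.two h1) e
    exact (h.beta (zpowers_le.2 h1 hw) (zpowers_le.2 h2 hw) ww hU (zpowers_le.2 h3 hw)).elim
  · push Not at hU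
    obtain ⟨v, h1, h2, h3, hn⟩ := hU
    exact h.gam h1 h2 h3 hn

theorem U.one (hJ : U J a) (hK : U K b) (ne : J ≠ K) (yK : y ∈ K) (p : P2 y) (yy : y * y ≠ 1)
    (ya : y ∈ Cen1 a) : y ∈ Nor J := by
  obtain ⟨w, hw, ww⟩ := hK.ex4 yK p yy
  have ba : b ∈ Cen1 a := ww ▸ mul_mem (zpowers_le.2 ya hw) (zpowers_le.2 ya hw)
  have ab := c1s ba
  by_cases e : a = b
  · subst e
    exact hJ.pc.nor hK.pc yK
  have an : a ∈ Nor K := by
    by_contra hn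
    have := T_of_ne hK.pc (hK.conjC ab).pc (ne_conj hn) (conj_mem_conjS (g := a) yK)
    rw [c1' (c1s ya)] at this
    rcases hK.T2 yK p this with e | e <;> rw [e] at yy
    · exact yy (one_mul 1)
    · exact yy hK.sq
  have bn := hJ.two hK an
  by_cases aT : a ∈ T b K
  · obtain ⟨M, hM, -, e⟩ := cover hK.pc hJ.sq ab aT
    exact bal hK.sq ba hM hJ.pc (e y yK ya p)
  by_cases bT : b ∈ T a J
  · obtain ⟨M, hM, MJ, e1⟩ := cover hJ.pc hK.sq ba bT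
    by_contra yN
    have hM' := hM
    rw [inf_comm] at hM'
    rcases pu1 ab hJ.sq hM' hK.pc an with e2 | e2
    · exact (hK.uq a (e2 (e1 a hJ.mem ab (P2.of_sq hJ.sq))) hJ.sq).elim hJ.ne e
    · have yD : zpowers y ≤ Cen1 b ⊓ Cen1 a := zpowers_le.2 (mem_inf.2 ⟨hK.pc.le yK, ya⟩)
      have e3 : ⁅M, zpowers y⁆ ≤ O (Cen1 b ⊓ Cen1 a) := by
        refine le_trans (le_inf ?_ ((commutator_mono hM'.le yD).trans (commutator_le_self _)))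
          (pPrimeCoreIn_inf_le inf_le_left)
        rw [commutator_comm]
        exact (commutator_mono (zpowers_le.2 yK) le_rfl).trans (le_cMod_iff.1 e2).2
      have e4 := mem_normalizer_iff_conjS.1
        (hM'.le_normalizer_of_commutator_le yD (e3.trans le_sup_right) (mem_zpowers y))
      refine hM.pqs.not_le_of_coprime (copO (Cen1 a)) (hM.perfect.ge.trans ?_)
      exact (commutator_mono MJ (e4.ge.trans (conjS_mono y MJ))).trans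
        ((hJ.pc.eq_or_commutator_le (hJ.conjC ya).pc).resolve_left (ne_conj yN))
  clear hw
  obtain ⟨k, p⟩ := p
  induction k generalizing y with
  | zero => rw [pow_zero, pow_one] at p; simp [p] at yy
  | succ k ih =>
    by_contra yN
    have y2 : y * y ∈ Nor J := by
      by_cases e : y * y * (y * y) = 1
      · exact (hK.uq _ (mul_mem yK yK) e).resolve_left yy ▸ bn
      · exact ih (mul_mem yK yK) e (mul_mem ya ya) (by rw [← pow_two, ← pow_mul, ← pow_succ', p])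
    obtain ⟨S, hS, yS⟩ := exists_isSylowOf_ge (K := NS a b hJ.sq) (P2.grp ⟨_, p⟩)
      (zpowers_le.2 (D_le (mem_inf.2 ⟨ya, hK.pc.le yK⟩)))
    exact Cx.false ⟨hJ, hK, e, bn, an, bT, aT, yK, ya, yy, yN, y2, hS, yS (mem_zpowers y)⟩

end IC
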